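/-
Sharply four-transitive permutation groups: the possible degrees, following the argument with
involutions that fix two given points.
-/
import Mathlib

set_option autoImplicit false

namespace CfsgLib.Sharp

open Equiv Equiv.Perm

variable {α : Type*} [Fintype α] [DecidableEq α]

/-- Four distinct points. -/
def D4 (a b c d : α) : Prop := a ≠ b ∧ a ≠ c ∧ a ≠ d ∧ b ≠ c ∧ b ≠ d ∧ c ≠ d

/-- A plain form of sharp four-fold transitivity. -/
structure S4 (G : Subgroup (Perm α)) : Prop where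
  real : ∀ {a b c d a' b' c' d' : α}, D4 a b c d → D4 a' b' c' d' →
    ∃ g ∈ G, g a = a' ∧ g b = b' ∧ g c = c' ∧ g d = d'
  sharp : ∀ g ∈ G, ∀ {a b c d : α}, D4 a b c d → g a = a → g b = b → g c = c → g d = d → g = 1

/-- The fixed points of a permutation. -/
def fx (g : Perm α) : Finset α := Finset.univ.filter fun x => g x = x

theorem mem_fx {g : Perm α} {x : α} : x ∈ fx g ↔ g x = x := by simp [fx]

theorem fx_card_modEq (s : Perm α) (p : ℕ) [Fact p.Prime] (h : s ^ p = 1) :
    (fx s).card ≡ Fintype.card α [MOD p] := by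
  have h1 : s ^ p ^ 1 = 1 := by simpa using h
  have h2 := Equiv.Perm.card_compl_support_modEq h1
  have h3 : s.supportᶜ = fx s := by
    ext x
    simp [fx, Equiv.Perm.mem_support]
  rwa [h3] at h2

theorem exists_D4 (hn : 4 ≤ Fintype.card α) : ∃ a b c d : α, D4 a b c d := by
  obtain ⟨s, -, hs⟩ := Finset.exists_subset_card_eq (s := (Finset.univ : Finset α)) (n := 4) (by simpa using hn)
  obtain ⟨a, t, hat, rfl, ht⟩ := Finset.card_eq_succ.mp hs
  obtain ⟨b, c, d, hbc, hbd, hcd, rfl⟩ := Finset.card_eq_three.mp ht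
  simp only [Finset.mem_insert, Finset.mem_singleton, not_or] at hat
  exact ⟨a, b, c, d, hat.1, hat.2.1, hat.2.2, hbc, hbd, hcd⟩

/-- A permutation without fixed points on a three-set it preserves has order three on it. -/
theorem three_cycle {F : Finset α} (hF : F.card = 3) {A : Perm α} (h1 : ∀ x ∈ F, A x ∈ F)
    (h2 : ∀ x ∈ F, A x ≠ x) {c : α} (hc : c ∈ F) : A (A (A c)) = c := by
  have hc1 := h1 c hc
  have hc2 := h1 _ hc1
  have hc3 := h1 _ hc2
  have n1 := h2 c hc
  have n2 := h2 _ hc1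
  have n3 := h2 _ hc2
  by_cases h20 : A (A c) = c
  · exfalso
    obtain ⟨r, hr, hr2⟩ := Finset.exists_mem_notMem_of_card_lt_card
      (s := ({c, A c} : Finset α)) (t := F) (by
        have := Finset.card_le_two (a := c) (b := A c)
        omega)
    simp only [Finset.mem_insert, Finset.mem_singleton, not_or] at hr2
    have hAr : A r ∈ F := h1 r hr
    have hsub : ({A r, c, A c} : Finset α) ⊆ F := by
      intro z hz
      simp only [Finset.mem_insert, Finset.mem_singleton] at hz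
      rcases hz with rfl | rfl | rfl
      · exact hAr
      · exact hc
      · exact hc1
    have hsub2 : ({r, c, A c} : Finset α) ⊆ F := by
      intro z hz
      simp only [Finset.mem_insert, Finset.mem_singleton] at hz
      rcases hz with rfl | rfl | rfl
      · exact hr
      · exact hc
      · exact hc1
    have e1 : ({r, c, A c} : Finset α) = F := by
      apply Finset.eq_of_subset_of_card_le hsub2
      rw [hF, Finset.card_insert_of_notMem (by simp [hr2.1, hr2.2]),
        Finset.card_insert_of_notMem (by simp [n1.symm]), Finset.card_singleton]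
    rw [← e1] at hAr
    simp only [Finset.mem_insert, Finset.mem_singleton] at hAr
    rcases hAr with h | h | h
    · exact h2 r hr h
    · have : A r = A (A c) := by rw [h, h20]
      exact hr2.2 (by
        have := A.injective this
        exact this)
    · exact hr2.1 (A.injective h)
  · have hsub : ({c, A c, A (A c)} : Finset α) ⊆ F := by
      intro z hz
      simp only [Finset.mem_insert, Finset.mem_singleton] at hz
      rcases hz with rfl | rfl | rfl
      · exact hc
      · exact hc1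
      · exact hc2
    have e1 : ({c, A c, A (A c)} : Finset α) = F := by
      apply Finset.eq_of_subset_of_card_le hsub
      rw [hF, Finset.card_insert_of_notMem (by simp [n1.symm, Ne.symm h20]),
        Finset.card_insert_of_notMem (by simp [n2.symm]), Finset.card_singleton]
    rw [← e1] at hc3
    simp only [Finset.mem_insert, Finset.mem_singleton] at hc3
    rcases hc3 with h | h | h
    · exact h
    · exact absurd (A.injective h) h20
    · exact absurd h n3

variable {G : Subgroup (Perm α)}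

namespace S4

variable (hG : S4 G)
include hG

theorem eq_of_agree {g g' : Perm α} (hg : g ∈ G) (hg' : g' ∈ G) {a b c d : α} (hd : D4 a b c d)
    (h1 : g a = g' a) (h2 : g b = g' b) (h3 : g c = g' c) (h4 : g d = g' d) : g = g' := by
  have := hG.sharp (g'⁻¹ * g) (G.mul_mem (G.inv_mem hg') hg) hd (by simp [h1]) (by simp [h2])
    (by simp [h3]) (by simp [h4])
  exact (inv_mul_eq_one.mp this).symm

theorem fx_card_le {g : Perm α} (hg : g ∈ G) (h1 : g ≠ 1) : (fx g).card ≤ 3 := by
  by_contra hc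
  obtain ⟨s, hs, hs4⟩ := Finset.exists_subset_card_eq (show 4 ≤ (fx g).card by omega)
  obtain ⟨a, t, hat, rfl, ht⟩ := Finset.card_eq_succ.mp hs4
  obtain ⟨b, c, d, hbc, hbd, hcd, rfl⟩ := Finset.card_eq_three.mp ht
  simp only [Finset.mem_insert, Finset.mem_singleton, not_or] at hat
  apply h1
  refine hG.sharp g hg (a := a) (b := b) (c := c) (d := d) ⟨hat.1, hat.2.1, hat.2.2, hbc, hbd, hcd⟩
    ?_ ?_ ?_ ?_ <;> exact mem_fx.mp (hs (by simp))

/-! ### Even degree -/

theorem fx_le_two (hev : Even (Fintype.card α)) {s : Perm α} (hs : s ∈ G) (h2 : s * s = 1) (h1 : s ≠ 1) :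
    (fx s).card ≤ 2 := by
  have h3 := hG.fx_card_le hs h1
  have h4 : (fx s).card ≡ Fintype.card α [MOD 2] :=
    haveI : Fact (Nat.Prime 2) := ⟨Nat.prime_two⟩
    fx_card_modEq s 2 (by rw [pow_two, h2])
  rcases hev with ⟨k, hk⟩
  unfold Nat.ModEq at h4
  omega

theorem no_three (hev : Even (Fintype.card α)) {s : Perm α} (hs : s ∈ G) (h2 : s * s = 1) (h1 : s ≠ 1)
    {x y z : α} (hx : s x = x) (hy : s y = y) (hz : s z = z) (hxy : x ≠ y) (hxz : x ≠ z) (hyz : y ≠ z) : False := by
  have h3 := hG.fx_le_two hev hs h2 h1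
  have h4 : 2 < (fx s).card :=
    Finset.two_lt_card_iff.mpr ⟨x, y, z, mem_fx.2 hx, mem_fx.2 hy, mem_fx.2 hz, hxy, hxz, hyz⟩
  omega

theorem even_case (hn4 : 4 ≤ Fintype.card α) (hev : Even (Fintype.card α)) : Fintype.card α ≤ 7 := by
  obtain ⟨a, b, c, d, hd⟩ := exists_D4 hn4
  obtain ⟨g, hg, hga, hgb, hgc, hgd⟩ := hG.real hd (a' := b) (b' := a) (c' := c) (d' := d) (by grind [D4])
  have hab : a ≠ b := hd.1
  have hg2 : g * g = 1 := hG.sharp _ (G.mul_mem hg hg) hd (by simp [hga, hgb]) (by simp [hga, hgb])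
    (by simp [hgc]) (by simp [hgd])
  have hg1 : g ≠ 1 := by
    rintro rfl
    exact hab (by simpa using hga)
  have hgg : ∀ x, g (g x) = x := fun x => by
    have := congrArg (fun f => f x) hg2
    simpa using this
  obtain ⟨τ₀, hτ₀, h0a, h0b, h0c, h0d⟩ := hG.real hd (a' := a) (b' := b) (c' := d) (d' := c) (by grind [D4])
  have h02 : τ₀ * τ₀ = 1 := hG.sharp _ (G.mul_mem hτ₀ hτ₀) hd (by simp [h0a]) (by simp [h0b])
    (by simp [h0c, h0d]) (by simp [h0c, h0d])
  have h0g : ∀ x, τ₀ (τ₀ x) = x := fun x => by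
    have := congrArg (fun f => f x) h02
    simpa using this
  have key : ∀ x, x ≠ a → x ≠ b → x ≠ c → x ≠ d → τ₀ x = g x := by
    intro x hxa hxb hxc hxd
    have hyx : g x ≠ x := fun h =>
      hG.no_three hev hg hg2 hg1 hgc hgd h (by grind [D4]) (Ne.symm hxc) (Ne.symm hxd)
    have hya : g x ≠ a := by
      intro h
      apply hxb
      apply g.injective
      rw [hgb, h]
    have hyb : g x ≠ b := by
      intro h
      apply hxa
      apply g.injective
      rw [hga, h]
    obtain ⟨τ, hτ, hτa, hτb, hτx, hτy⟩ := hG.real (a := a) (b := b) (c := x) (d := g x)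
      (a' := a) (b' := b) (c' := g x) (d' := x) (by grind [D4]) (by grind [D4])
    have hD : D4 a b x (g x) := by grind [D4]
    have hτ2 : τ * τ = 1 := hG.sharp _ (G.mul_mem hτ hτ) hD (by simp [hτa]) (by simp [hτb])
      (by simp [hτx, hτy]) (by simp [hτx, hτy])
    have hτg : ∀ x, τ (τ x) = x := fun x => by
      have := congrArg (fun f => f x) hτ2
      simpa using this
    have hτ1 : τ ≠ 1 := by
      rintro rfl
      exact hyx (by simpa using hτx.symm)
    have hcomm : g * τ * g = τ := hG.eq_of_agree (G.mul_mem (G.mul_mem hg hτ) hg) hτ hD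
      (by simp [hga, hgb, hτb, hτa]) (by simp [hga, hgb, hτa, hτb]) (by simp [hτy, hτx, hgg])
      (by simp [hτx, hτy, hgg])
    have hgτ : g (τ c) = τ c := by
      have := congrArg (fun f => f c) hcomm
      simpa [hgc] using this
    have hτc : τ c = c ∨ τ c = d := by
      by_contra hcon
      push Not at hcon
      exact hG.no_three hev hg hg2 hg1 hgc hgd hgτ hd.2.2.2.2.2 (Ne.symm hcon.1) (Ne.symm hcon.2)
    rcases hτc with h | h
    · exact (hG.no_three hev hτ hτ2 hτ1 hτa hτb h hab hd.2.1 hd.2.2.2.1).elim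
    · have hτd : τ d = c := by
        rw [← h]
        exact hτg c
      have e : τ = τ₀ := hG.eq_of_agree hτ hτ₀ hd (by rw [hτa, h0a]) (by rw [hτb, h0b]) (by rw [h, h0c])
        (by rw [hτd, h0d])
      rw [← e]
      exact hτx
  have he : τ₀ * g ≠ 1 := by
    intro h
    have := congrArg (fun f => f a) h
    simp only [Perm.mul_apply, hga, h0b, Perm.one_apply] at this
    exact hab this.symm
  have hsub : Finset.univ \ ({a, b, c, d} : Finset α) ⊆ fx (τ₀ * g) := by
    intro x hx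
    simp only [Finset.mem_sdiff, Finset.mem_univ, true_and, Finset.mem_insert, Finset.mem_singleton,
      not_or] at hx
    rw [mem_fx, Perm.mul_apply, ← key x hx.1 hx.2.1 hx.2.2.1 hx.2.2.2, h0g]
  have h1 := Finset.card_le_card hsub
  have h2 := hG.fx_card_le (G.mul_mem hτ₀ hg) he
  have h3 := Finset.le_card_sdiff ({a, b, c, d} : Finset α) (Finset.univ : Finset α)
  have h4 : ({a, b, c, d} : Finset α).card ≤ 4 := Finset.card_le_four
  rw [Finset.card_univ] at h3
  omega

/-! ### Odd degree: the involutions fixing two given points -/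

section Odd

variable {a b : α}

/-- Involutions of the two-point stabiliser fixing a third point. -/
def Tw (G : Subgroup (Perm α)) (a b w : α) (s : Perm α) : Prop :=
  s ∈ G ∧ s a = a ∧ s b = b ∧ s w = w ∧ s * s = 1 ∧ s ≠ 1

omit hG in
theorem Tw.app {w : α} {s : Perm α} (h : Tw G a b w s) (x : α) : s (s x) = x := by
  have := congrArg (fun f => f x) h.2.2.2.2.1
  simpa using this

theorem swap_ex (hab : a ≠ b) {x y : α} (hxa : x ≠ a) (hxb : x ≠ b) (hya : y ≠ a) (hyb : y ≠ b) (hxy : x ≠ y) :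
    ∃ s ∈ G, s a = a ∧ s b = b ∧ s x = y ∧ s y = x ∧ s * s = 1 ∧ s ≠ 1 := by
  have hD : D4 a b x y := by grind [D4]
  obtain ⟨s, hs, h1, h2, h3, h4⟩ := hG.real hD (a' := a) (b' := b) (c' := y) (d' := x) (by grind [D4])
  refine ⟨s, hs, h1, h2, h3, h4, ?_, ?_⟩
  · exact hG.sharp _ (G.mul_mem hs hs) hD (by simp [h1]) (by simp [h2]) (by simp [h3, h4]) (by simp [h3, h4])
  · rintro rfl
    exact hxy (by simpa using h3)

/-- An involution fixing two points has exactly one further fixed point in odd degree. -/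
theorem third_fix (hodd : Odd (Fintype.card α)) (hab : a ≠ b) {s : Perm α} (hs : s ∈ G) (h2 : s * s = 1)
    (h1 : s ≠ 1) (ha : s a = a) (hb : s b = b) : ∃ w, w ≠ a ∧ w ≠ b ∧ s w = w := by
  have h3 := hG.fx_card_le hs h1
  have h4 : (fx s).card ≡ Fintype.card α [MOD 2] :=
    haveI : Fact (Nat.Prime 2) := ⟨Nat.prime_two⟩
    fx_card_modEq s 2 (by rw [pow_two, h2])
  have h5 : ({a, b} : Finset α) ⊆ fx s := by
    intro z hz
    simp only [Finset.mem_insert, Finset.mem_singleton] at hz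
    rcases hz with rfl | rfl
    · exact mem_fx.2 ha
    · exact mem_fx.2 hb
  have h6 : ({a, b} : Finset α).card = 2 := Finset.card_pair hab
  have h7 := Finset.card_le_card h5
  have h8 : ({a, b} : Finset α).card < (fx s).card := by
    rcases hodd with ⟨k, hk⟩
    unfold Nat.ModEq at h4
    omega
  obtain ⟨w, hw, hw2⟩ := Finset.exists_mem_notMem_of_card_lt_card h8
  simp only [Finset.mem_insert, Finset.mem_singleton, not_or] at hw2
  exact ⟨w, hw2.1, hw2.2, mem_fx.1 hw⟩

theorem fix_unique (hab : a ≠ b) {s : Perm α} (hs : s ∈ G) (h1 : s ≠ 1) (ha : s a = a) (hb : s b = b)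
    {w w' : α} (hwa : w ≠ a) (hwb : w ≠ b) (hw'a : w' ≠ a) (hw'b : w' ≠ b) (hw : s w = w) (hw' : s w' = w') :
    w = w' := by
  by_contra hne
  exact h1 (hG.sharp s hs (a := a) (b := b) (c := w) (d := w') (by grind [D4]) ha hb hw hw')

theorem swap_unique (hab : a ≠ b) {s s' : Perm α} (hs : s ∈ G) (hs' : s' ∈ G) (ha : s a = a) (hb : s b = b)
    (ha' : s' a = a) (hb' : s' b = b) {x y : α} (hxa : x ≠ a) (hxb : x ≠ b) (hya : y ≠ a) (hyb : y ≠ b)
    (hxy : x ≠ y) (h1 : s x = s' x) (h2 : s y = s' y) : s = s' :=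
  hG.eq_of_agree hs hs' (a := a) (b := b) (c := x) (d := y) (by grind [D4]) (by rw [ha, ha'])
    (by rw [hb, hb']) h1 h2

/-- The midpoint relation. -/
def MidR (G : Subgroup (Perm α)) (a b x y w : α) : Prop :=
  (x = y ∧ w = x) ∨ (x ≠ y ∧ ∃ s ∈ G, s a = a ∧ s b = b ∧ s x = y ∧ s y = x ∧ s w = w)

theorem midR_exists (hodd : Odd (Fintype.card α)) (hab : a ≠ b) {x y : α} (hxa : x ≠ a) (hxb : x ≠ b)
    (hya : y ≠ a) (hyb : y ≠ b) : ∃ w, w ≠ a ∧ w ≠ b ∧ MidR G a b x y w := by
  by_cases hxy : x = y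
  · exact ⟨x, hxa, hxb, Or.inl ⟨hxy, rfl⟩⟩
  · obtain ⟨s, hs, h1, h2, h3, h4, h5, h6⟩ := hG.swap_ex hab hxa hxb hya hyb hxy
    obtain ⟨w, hwa, hwb, hw⟩ := hG.third_fix hodd hab hs h5 h6 h1 h2
    exact ⟨w, hwa, hwb, Or.inr ⟨hxy, s, hs, h1, h2, h3, h4, hw⟩⟩

theorem midR_unique (hab : a ≠ b) {x y w w' : α} (hxa : x ≠ a) (hxb : x ≠ b) (hya : y ≠ a) (hyb : y ≠ b)
    (hwa : w ≠ a) (hwb : w ≠ b) (hw'a : w' ≠ a) (hw'b : w' ≠ b)
    (h : MidR G a b x y w) (h' : MidR G a b x y w') : w = w' := by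
  rcases h with ⟨e, rfl⟩ | ⟨hne, s, hs, h1, h2, h3, h4, h5⟩
  · rcases h' with ⟨_, rfl⟩ | ⟨hne, _⟩
    · rfl
    · exact absurd e hne
  · rcases h' with ⟨e, _⟩ | ⟨_, s', hs', h1', h2', h3', h4', h5'⟩
    · exact absurd e hne
    · have e1 : s = s' := hG.swap_unique hab hs hs' h1 h2 h1' h2' hxa hxb hya hyb hne (by rw [h3, h3'])
        (by rw [h4, h4'])
      subst e1
      have h6 : s ≠ 1 := by
        rintro rfl
        exact hne (by simpa using h3)
      exact hG.fix_unique hab hs h6 h1 h2 hwa hwb hw'a hw'b h5 h5'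

/-- Involutions exist for every third point. -/
theorem exists_Tw (hodd : Odd (Fintype.card α)) (h5 : 5 ≤ Fintype.card α) (hab : a ≠ b) {w : α} (hwa : w ≠ a)
    (hwb : w ≠ b) : ∃ s, Tw G a b w s := by
  have h3 : ({a, b, w} : Finset α).card < (Finset.univ : Finset α).card := by
    have := Finset.card_le_three (a := a) (b := b) (c := w)
    rw [Finset.card_univ]
    omega
  obtain ⟨z', -, hz'⟩ := Finset.exists_mem_notMem_of_card_lt_card h3
  simp only [Finset.mem_insert, Finset.mem_singleton, not_or] at hz'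
  have hex : ∃ x y, x ≠ a ∧ x ≠ b ∧ y ≠ a ∧ y ≠ b ∧ x ≠ y :=
    ⟨w, z', hwa, hwb, hz'.1, hz'.2.1, fun e => hz'.2.2 e.symm⟩
  obtain ⟨x, y, hxa, hxb, hya, hyb, hxy⟩ := hex
  obtain ⟨s, hs, h1, h2, h3, h4, h5', h6⟩ := hG.swap_ex hab hxa hxb hya hyb hxy
  obtain ⟨w₀, hw₀a, hw₀b, hw₀⟩ := hG.third_fix hodd hab hs h5' h6 h1 h2
  have hxw₀ : x ≠ w₀ := by
    rintro rfl
    exact hxy (hw₀.symm.trans h3)
  obtain ⟨h, hh, ha, hb, hc, hd⟩ := hG.real (a := a) (b := b) (c := w₀) (d := x) (a' := a) (b' := b) (c' := w)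
    (d' := z') (by grind [D4]) (by grind [D4])
  refine ⟨h * s * h⁻¹, G.mul_mem (G.mul_mem hh hs) (G.inv_mem hh), ?_, ?_, ?_, ?_, ?_⟩
  · have : h⁻¹ a = a := by rw [Perm.inv_eq_iff_eq, ha]
    rw [Perm.mul_apply, Perm.mul_apply, this, h1, ha]
  · have : h⁻¹ b = b := by rw [Perm.inv_eq_iff_eq, hb]
    rw [Perm.mul_apply, Perm.mul_apply, this, h2, hb]
  · have : h⁻¹ w = w₀ := by rw [Perm.inv_eq_iff_eq, hc]
    rw [Perm.mul_apply, Perm.mul_apply, this, hw₀, hc]
  · have e : h * s * h⁻¹ * (h * s * h⁻¹) = h * (s * s) * h⁻¹ := by group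
    rw [e, h5']
    simp
  · intro e
    apply h6
    have : s = h⁻¹ * (h * s * h⁻¹) * h := by group
    rw [this, e]
    simp

/-- The involution of the two-point stabiliser fixing a third point is unique. -/
theorem Tw_unique (hodd : Odd (Fintype.card α)) (h5 : 5 ≤ Fintype.card α) (hab : a ≠ b) {w : α} (hwa : w ≠ a)
    (hwb : w ≠ b) {s s' : Perm α} (hs : Tw G a b w s) (hs' : Tw G a b w s') : s = s' := by
  -- the midpoint map from a point is injective
  have hinj : ∀ x, x ≠ a → x ≠ b → x ≠ w → s x = s' x := by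
    intro x hxa hxb hxw
    let β := {z : α // z ≠ a ∧ z ≠ b}
    have hm : ∀ y : β, ∃ u : β, MidR G a b x y.1 u.1 := by
      intro y
      obtain ⟨u, hu1, hu2, hu3⟩ := hG.midR_exists hodd hab hxa hxb y.2.1 y.2.2
      exact ⟨⟨u, hu1, hu2⟩, hu3⟩
    choose f hf using hm
    have hsx : ∀ {t : Perm α}, Tw G a b w t → t x ≠ a ∧ t x ≠ b ∧ t x ≠ x ∧ MidR G a b x (t x) w := by
      intro t ht
      have h1 : t x ≠ a := by
        intro h
        apply hxa
        apply t.injective
        rw [ht.2.1, h]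
      have h2 : t x ≠ b := by
        intro h
        apply hxb
        apply t.injective
        rw [ht.2.2.1, h]
      have h3 : t x ≠ x := fun h =>
        hxw (hG.fix_unique hab ht.1 ht.2.2.2.2.2 ht.2.1 ht.2.2.1 hxa hxb hwa hwb h ht.2.2.2.1)
      exact ⟨h1, h2, h3, Or.inr ⟨h3.symm, t, ht.1, ht.2.1, ht.2.2.1, rfl, ht.app x, ht.2.2.2.1⟩⟩
    have hsurj : Function.Surjective f := by
      intro u
      by_cases hux : u.1 = x
      · refine ⟨⟨x, hxa, hxb⟩, ?_⟩
        apply Subtype.ext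
        refine hG.midR_unique hab hxa hxb hxa hxb (f _).2.1 (f _).2.2 u.2.1 u.2.2 (hf ⟨x, hxa, hxb⟩) ?_
        exact Or.inl ⟨rfl, hux⟩
      · obtain ⟨t, ht⟩ := hG.exists_Tw hodd h5 hab u.2.1 u.2.2
        have hxu : x ≠ a ∧ x ≠ b := ⟨hxa, hxb⟩
        have h1 : t x ≠ a := by
          intro h
          apply hxa
          apply t.injective
          rw [ht.2.1, h]
        have h2 : t x ≠ b := by
          intro h
          apply hxb
          apply t.injective
          rw [ht.2.2.1, h]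
        have h3 : t x ≠ x := fun h =>
          hux (hG.fix_unique hab ht.1 ht.2.2.2.2.2 ht.2.1 ht.2.2.1 u.2.1 u.2.2 hxa hxb ht.2.2.2.1 h)
        refine ⟨⟨t x, h1, h2⟩, ?_⟩
        apply Subtype.ext
        refine hG.midR_unique hab hxa hxb h1 h2 (f _).2.1 (f _).2.2 u.2.1 u.2.2 (hf ⟨t x, h1, h2⟩) ?_
        exact Or.inr ⟨h3.symm, t, ht.1, ht.2.1, ht.2.2.1, rfl, ht.app x, ht.2.2.2.1⟩
    have hfinj : Function.Injective f := Finite.injective_iff_surjective.mpr hsurj
    obtain ⟨h1, h2, _, h4⟩ := hsx hs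
    obtain ⟨h1', h2', _, h4'⟩ := hsx hs'
    have e1 : (f ⟨s x, h1, h2⟩).1 = w :=
      hG.midR_unique hab hxa hxb h1 h2 (f _).2.1 (f _).2.2 hwa hwb (hf ⟨s x, h1, h2⟩) h4
    have e2 : (f ⟨s' x, h1', h2'⟩).1 = w :=
      hG.midR_unique hab hxa hxb h1' h2' (f _).2.1 (f _).2.2 hwa hwb (hf ⟨s' x, h1', h2'⟩) h4'
    have e3 : f ⟨s x, h1, h2⟩ = f ⟨s' x, h1', h2'⟩ := Subtype.ext (e1.trans e2.symm)
    have e4 := hfinj e3
    exact congrArg Subtype.val e4
  -- two further points
  have h3 : ({a, b, w} : Finset α).card < (Finset.univ : Finset α).card := by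
    have := Finset.card_le_three (a := a) (b := b) (c := w)
    rw [Finset.card_univ]
    omega
  obtain ⟨x₁, -, hx₁⟩ := Finset.exists_mem_notMem_of_card_lt_card h3
  simp only [Finset.mem_insert, Finset.mem_singleton, not_or] at hx₁
  have h4 : ({a, b, w, x₁} : Finset α).card < (Finset.univ : Finset α).card := by
    have := Finset.card_le_four (a := a) (b := b) (c := w) (d := x₁)
    rw [Finset.card_univ]
    omega
  obtain ⟨x₂, -, hx₂⟩ := Finset.exists_mem_notMem_of_card_lt_card h4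
  simp only [Finset.mem_insert, Finset.mem_singleton, not_or] at hx₂
  exact hG.swap_unique hab hs.1 hs'.1 hs.2.1 hs.2.2.1 hs'.2.1 hs'.2.2.1 hx₁.1 hx₁.2.1 hx₂.1 hx₂.2.1
    (fun e => hx₂.2.2.2 e.symm) (hinj _ hx₁.1 hx₁.2.1 hx₁.2.2) (hinj _ hx₂.1 hx₂.2.1 hx₂.2.2.1)

end Odd

end S4

end CfsgLib.Sharp
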