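/-
Sharply four-transitive permutation groups: odd degree, and the theorem on the degree.
-/
import Cfsg.Agent.Lib.Sharp.Four

set_option autoImplicit false

namespace CfsgLib.Sharp

open Equiv Equiv.Perm

variable {α : Type*} [Fintype α] [DecidableEq α] {G : Subgroup (Perm α)}

namespace S4

variable (hG : S4 G)
include hG

section

variable {a b : α} (hodd : Odd (Fintype.card α)) (h5 : 5 ≤ Fintype.card α) (hab : a ≠ b)
  {t : α → Perm α} (ht : ∀ w, w ≠ a → w ≠ b → Tw G a b w (t w))
include hodd h5 hab ht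

theorem t_key {u v x : α} (hua : u ≠ a) (hub : u ≠ b) (hva : v ≠ a) (hvb : v ≠ b) (hxa : x ≠ a) (hxb : x ≠ b)
    (h : t u x = t v x) : u = v := by
  have hU := ht u hua hub
  have hV := ht v hva hvb
  by_cases hy : t u x = x
  · have e1 : x = u := hG.fix_unique hab hU.1 hU.2.2.2.2.2 hU.2.1 hU.2.2.1 hxa hxb hua hub hy hU.2.2.2.1
    have e2 : x = v := hG.fix_unique hab hV.1 hV.2.2.2.2.2 hV.2.1 hV.2.2.1 hxa hxb hva hvb (h ▸ hy) hV.2.2.2.1
    exact e1.symm.trans e2
  · have hya : t u x ≠ a := by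
      intro h'
      apply hxa
      apply (t u).injective
      rw [hU.2.1, h']
    have hyb : t u x ≠ b := by
      intro h'
      apply hxb
      apply (t u).injective
      rw [hU.2.2.1, h']
    have e : t u = t v := hG.swap_unique hab hU.1 hV.1 hU.2.1 hU.2.2.1 hV.2.1 hV.2.2.1 hxa hxb hya hyb
      (Ne.symm hy) h (by
        rw [hU.app x]
        conv_rhs => rw [h]
        rw [hV.app x])
    have h3 : t v u = u := by
      rw [← e]
      exact hU.2.2.2.1
    exact hG.fix_unique hab hV.1 hV.2.2.2.2.2 hV.2.1 hV.2.2.1 hua hub hva hvb h3 hV.2.2.2.1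

theorem t_mid {x y : α} (hxa : x ≠ a) (hxb : x ≠ b) (hya : y ≠ a) (hyb : y ≠ b) :
    ∃ w, w ≠ a ∧ w ≠ b ∧ t w x = y := by
  by_cases hxy : x = y
  · subst hxy
    exact ⟨x, hxa, hxb, (ht x hxa hxb).2.2.2.1⟩
  · obtain ⟨s, hs, h1, h2, h3, h4, h5', h6⟩ := hG.swap_ex hab hxa hxb hya hyb hxy
    obtain ⟨w, hwa, hwb, hw⟩ := hG.third_fix hodd hab hs h5' h6 h1 h2
    have hT : Tw G a b w s := ⟨hs, h1, h2, hw, h5', h6⟩
    have e := hG.Tw_unique hodd h5 hab hwa hwb hT (ht w hwa hwb)
    exact ⟨w, hwa, hwb, e ▸ h3⟩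

theorem t_conj {h : Perm α} (hh : h ∈ G) (hp : (h a = a ∧ h b = b) ∨ (h a = b ∧ h b = a)) {w : α}
    (hwa : w ≠ a) (hwb : w ≠ b) (hga : h w ≠ a) (hgb : h w ≠ b) : h * t w * h⁻¹ = t (h w) := by
  have hW := ht w hwa hwb
  refine hG.Tw_unique hodd h5 hab hga hgb ?_ (ht _ hga hgb)
  have hfix : (h * t w * h⁻¹) a = a ∧ (h * t w * h⁻¹) b = b := by
    rcases hp with ⟨h1, h2⟩ | ⟨h1, h2⟩
    · have e1 : h⁻¹ a = a := by rw [Perm.inv_eq_iff_eq, h1]
      have e2 : h⁻¹ b = b := by rw [Perm.inv_eq_iff_eq, h2]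
      constructor
      · rw [Perm.mul_apply, Perm.mul_apply, e1, hW.2.1, h1]
      · rw [Perm.mul_apply, Perm.mul_apply, e2, hW.2.2.1, h2]
    · have e1 : h⁻¹ a = b := by rw [Perm.inv_eq_iff_eq, h2]
      have e2 : h⁻¹ b = a := by rw [Perm.inv_eq_iff_eq, h1]
      constructor
      · rw [Perm.mul_apply, Perm.mul_apply, e1, hW.2.2.1, h2]
      · rw [Perm.mul_apply, Perm.mul_apply, e2, hW.2.1, h1]
  refine ⟨G.mul_mem (G.mul_mem hh hW.1) (G.inv_mem hh), hfix.1, hfix.2, ?_, ?_, ?_⟩
  · simp [hW.2.2.2.1]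
  · have e : h * t w * h⁻¹ * (h * t w * h⁻¹) = h * (t w * t w) * h⁻¹ := by group
    rw [e, hW.2.2.2.2.1]
    simp
  · intro e
    apply hW.2.2.2.2.2
    have e2 : t w = h⁻¹ * (h * t w * h⁻¹) * h := by group
    rw [e2, e]
    simp

theorem fx_mid {g' : Perm α} (hg' : g' ∈ G) (ha : g' a = b) (hb : g' b = a) (h2 : g' * g' = 1) {x w : α}
    (hxa : x ≠ a) (hxb : x ≠ b) (hwa : w ≠ a) (hwb : w ≠ b) (hw : t w x = g' x) : g' w = w := by
  have hnot : ∀ z, z ≠ a → z ≠ b → g' z ≠ a ∧ g' z ≠ b := by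
    intro z hza hzb
    constructor
    · intro h
      apply hzb
      apply g'.injective
      rw [hb, h]
    · intro h
      apply hza
      apply g'.injective
      rw [ha, h]
  have hgg : ∀ z, g' (g' z) = z := fun z => by
    have := congrArg (fun f => f z) h2
    simpa using this
  have hconj := hG.t_conj hodd h5 hab ht hg' (Or.inr ⟨ha, hb⟩) hwa hwb (hnot w hwa hwb).1 (hnot w hwa hwb).2
  have h1 : t (g' w) (g' x) = x := by
    rw [← hconj]
    simp [hw, hgg]
  have h3 : t w (g' x) = x := by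
    rw [← hw]
    exact (ht w hwa hwb).app x
  exact hG.t_key hodd h5 hab ht (hnot w hwa hwb).1 (hnot w hwa hwb).2 hwa hwb (hnot x hxa hxb).1
    (hnot x hxa hxb).2 (h1.trans h3.symm)

theorem mod3_of_fix3 {g' : Perm α} (hg' : g' ∈ G) (ha : g' a = b) (hb : g' b = a) (h2 : g' * g' = 1)
    {c u : α} (hca : c ≠ a) (hcb : c ≠ b) (hua : u ≠ a) (hub : u ≠ b) (huc : u ≠ c) (hgc : g' c = c)
    (hgu : g' u = u) (h3 : (fx g').card = 3) : Fintype.card α % 3 = 2 := by
  have hU := ht u hua hub
  have hT := ht c hca hcb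
  have hAG : t u * t c ∈ G := G.mul_mem hU.1 hT.1
  have hAa : (t u * t c) a = a := by simp [hT.2.1, hU.2.1]
  have hAb : (t u * t c) b = b := by simp [hT.2.2.1, hU.2.2.1]
  have hfree : ∀ x, x ≠ a → x ≠ b → (t u * t c) x ≠ x := by
    intro x hxa hxb h
    have e : t c x = t u x := by
      have := congrArg (t u) h
      rw [Perm.mul_apply, hU.app] at this
      exact this
    exact huc (hG.t_key hodd h5 hab ht hca hcb hua hub hxa hxb e).symm
  have hcU : g' * t u * g'⁻¹ = t u := by
    have := hG.t_conj hodd h5 hab ht hg' (Or.inr ⟨ha, hb⟩) hua hub (by rw [hgu]; exact hua) (by rw [hgu]; exact hub)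
    rwa [hgu] at this
  have hcT : g' * t c * g'⁻¹ = t c := by
    have := hG.t_conj hodd h5 hab ht hg' (Or.inr ⟨ha, hb⟩) hca hcb (by rw [hgc]; exact hca) (by rw [hgc]; exact hcb)
    rwa [hgc] at this
  have hcomm : ∀ x, g' ((t u * t c) x) = (t u * t c) (g' x) := by
    intro x
    have e : g' * (t u * t c) = (t u * t c) * g' := by
      calc g' * (t u * t c) = (g' * t u * g'⁻¹) * (g' * t c * g'⁻¹) * g' := by group
        _ = (t u * t c) * g' := by rw [hcU, hcT]
    exact congrArg (fun f => f x) e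
  have hF1 : ∀ x ∈ fx g', (t u * t c) x ∈ fx g' := by
    intro x hx
    rw [mem_fx] at hx ⊢
    rw [hcomm, hx]
  have hF2 : ∀ x ∈ fx g', (t u * t c) x ≠ x := by
    intro x hx
    rw [mem_fx] at hx
    have hxa : x ≠ a := by
      rintro rfl
      exact hab (hx.symm.trans ha)
    have hxb : x ≠ b := by
      rintro rfl
      exact hab (hb.symm.trans hx)
    exact hfree x hxa hxb
  have h3c := three_cycle h3 hF1 hF2 (mem_fx.2 hgc)
  have hnot : ∀ {s : Perm α} {z : α}, s a = a → s b = b → z ≠ a → z ≠ b → s z ≠ a ∧ s z ≠ b := by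
    intro s z h1 h2 hza hzb
    constructor
    · intro h
      apply hza
      apply s.injective
      rw [h1, h]
    · intro h
      apply hzb
      apply s.injective
      rw [h2, h]
  have hUc := hnot hU.2.1 hU.2.2.1 hca hcb
  have hTu := hnot hT.2.1 hT.2.2.1 hua hub
  have e1 : t u * t c * t u = t (t u c) := by
    have := hG.t_conj hodd h5 hab ht hU.1 (Or.inl ⟨hU.2.1, hU.2.2.1⟩) hca hcb hUc.1 hUc.2
    rwa [inv_eq_of_mul_eq_one_left hU.2.2.2.2.1] at this
  have e2 : t c * t u * t c = t (t c u) := by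
    have := hG.t_conj hodd h5 hab ht hT.1 (Or.inl ⟨hT.2.1, hT.2.2.1⟩) hua hub hTu.1 hTu.2
    rwa [inv_eq_of_mul_eq_one_left hT.2.2.2.2.1] at this
  have e3 : (t u * t c) * (t u * t c) * (t u * t c) = t (t u c) * t (t c u) := by
    rw [← e1, ← e2]
    group
  have hcfix : t (t u c) (t (t c u) c) = c := by
    have := congrArg (fun f => f c) e3
    simp only [Perm.mul_apply] at this
    rw [← this]
    simpa using h3c
  have hk : t (t c u) c = t (t u c) c := by
    have h := congrArg (t (t u c)) hcfix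
    rwa [(ht _ hUc.1 hUc.2).app] at h
  have heq : t c u = t u c := hG.t_key hodd h5 hab ht hTu.1 hTu.2 hUc.1 hUc.2 hca hcb hk
  have hA3 : (t u * t c) ^ 3 = 1 := by
    have e4 : (t u * t c) ^ 3 = (t u * t c) * (t u * t c) * (t u * t c) := by
      rw [pow_succ, pow_two]
    rw [e4, e3, heq]
    exact (ht _ hUc.1 hUc.2).2.2.2.2.1
  have hmod : (fx (t u * t c)).card ≡ Fintype.card α [MOD 3] :=
    haveI : Fact (Nat.Prime 3) := ⟨Nat.prime_three⟩
    fx_card_modEq _ 3 hA3
  have hfxA : fx (t u * t c) = {a, b} := by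
    ext x
    simp only [mem_fx, Finset.mem_insert, Finset.mem_singleton]
    constructor
    · intro h
      by_contra hcon
      push Not at hcon
      exact hfree x hcon.1 hcon.2 h
    · rintro (rfl | rfl)
      · exact hAa
      · exact hAb
  rw [hfxA, Finset.card_pair hab] at hmod
  unfold Nat.ModEq at hmod
  omega

end

theorem odd_case (hn4 : 4 ≤ Fintype.card α) (hodd : Odd (Fintype.card α)) :
    Fintype.card α = 5 ∨ Fintype.card α = 11 := by
  have h5 : 5 ≤ Fintype.card α := by
    rcases hodd with ⟨k, hk⟩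
    omega
  obtain ⟨a, b, c, d, hd⟩ := exists_D4 hn4
  have hab := hd.1
  have hex : ∀ w, ∃ s, w ≠ a → w ≠ b → Tw G a b w s := by
    intro w
    by_cases h : w ≠ a ∧ w ≠ b
    · obtain ⟨s, hs⟩ := hG.exists_Tw hodd h5 hab h.1 h.2
      exact ⟨s, fun _ _ => hs⟩
    · exact ⟨1, fun h1 h2 => (h ⟨h1, h2⟩).elim⟩
  choose t ht using hex
  have hca : c ≠ a := Ne.symm hd.2.1
  have hcb : c ≠ b := Ne.symm hd.2.2.2.1
  obtain ⟨g, hg, hga, hgb, hgc, hgd⟩ := hG.real hd (a' := b) (b' := a) (c' := c) (d' := d) (by grind [D4])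
  have hg2 : g * g = 1 := hG.sharp _ (G.mul_mem hg hg) hd (by simp [hga, hgb]) (by simp [hga, hgb])
    (by simp [hgc]) (by simp [hgd])
  have hT := ht c hca hcb
  have hconj := hG.t_conj hodd h5 hab ht hg (Or.inr ⟨hga, hgb⟩) hca hcb (by rw [hgc]; exact hca)
    (by rw [hgc]; exact hcb)
  rw [hgc] at hconj
  have hgT : g * t c = t c * g := by
    calc g * t c = (g * t c * g⁻¹) * g := by group
      _ = t c * g := by rw [hconj]
  have hgTapp : ∀ x, g (t c x) = t c (g x) := fun x => congrArg (fun f => f x) hgT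
  have hTT : ∀ x, t c (t c x) = x := hT.app
  have hgg : ∀ x, g (g x) = x := fun x => by
    have := congrArg (fun f => f x) hg2
    simpa using this
  have hg'G : g * t c ∈ G := G.mul_mem hg hT.1
  have hg'a : (g * t c) a = b := by simp [hT.2.1, hga]
  have hg'b : (g * t c) b = a := by simp [hT.2.2.1, hgb]
  have hg'c : (g * t c) c = c := by simp [hT.2.2.2.1, hgc]
  have hg'2 : (g * t c) * (g * t c) = 1 := by
    calc (g * t c) * (g * t c) = g * (t c * g) * t c := by group
      _ = g * (g * t c) * t c := by rw [hgT]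
      _ = (g * g) * (t c * t c) := by group
      _ = 1 := by rw [hg2, hT.2.2.2.2.1, one_mul]
  have hM : ∀ (g' : Perm α), g' ∈ G → g' a = b → g' b = a → g' * g' = 1 → ∀ x, ∃ w, x ≠ a → x ≠ b →
      (w ≠ a ∧ w ≠ b ∧ g' w = w ∧ t w x = g' x) := by
    intro g' hg' ha hb h2 x
    by_cases h : x ≠ a ∧ x ≠ b
    · have hgx : g' x ≠ a ∧ g' x ≠ b := by
        constructor
        · intro h'
          apply h.2
          apply g'.injective
          rw [hb, h']
        · intro h'
          apply h.1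
          apply g'.injective
          rw [ha, h']
      obtain ⟨w, hwa, hwb, hw⟩ := hG.t_mid hodd h5 hab ht h.1 h.2 hgx.1 hgx.2
      exact ⟨w, fun _ _ => ⟨hwa, hwb, hG.fx_mid hodd h5 hab ht hg' ha hb h2 h.1 h.2 hwa hwb hw, hw⟩⟩
    · exact ⟨a, fun h1 h2 => (h ⟨h1, h2⟩).elim⟩
  choose M hMp using hM g hg hga hgb hg2
  choose M' hMp' using hM (g * t c) hg'G hg'a hg'b hg'2
  have hcard : (Finset.univ \ ({a, b} : Finset α)).card ≤ ((fx g) ×ˢ (fx (g * t c))).card := by
    apply Finset.card_le_card_of_injOn (fun x => (M x, M' x))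
    · intro x hx
      have hx' : x ≠ a ∧ x ≠ b := by
        simpa [not_or] using hx
      simp only [Finset.coe_product, Set.mem_prod, Finset.mem_coe, mem_fx]
      exact ⟨(hMp x hx'.1 hx'.2).2.2.1, (hMp' x hx'.1 hx'.2).2.2.1⟩
    · intro x hx y hy hxy
      have hx' : x ≠ a ∧ x ≠ b := by
        simpa [not_or] using hx
      have hy' : y ≠ a ∧ y ≠ b := by
        simpa [not_or] using hy
      have e1 : M x = M y := congrArg Prod.fst hxy
      have e2 : M' x = M' y := congrArg Prod.snd hxy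
      by_contra hne
      obtain ⟨hua, hub, -, h1⟩ := hMp x hx'.1 hx'.2
      obtain ⟨-, -, -, h2⟩ := hMp y hy'.1 hy'.2
      obtain ⟨hva, hvb, -, h3⟩ := hMp' x hx'.1 hx'.2
      obtain ⟨-, -, -, h4⟩ := hMp' y hy'.1 hy'.2
      rw [← e1] at h2
      rw [← e2] at h4
      have hU := ht _ hua hub
      have hV := ht _ hva hvb
      have hfixx : ∀ z, t (M x) z = g z → t (M' x) z = (g * t c) z →
          (t (M x) * t c * t (M' x)) z = z := by
        intro z hz1 hz2
        simp only [Perm.mul_apply] at hz2 ⊢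
        rw [hz2, hgTapp, hTT, ← hz1, hU.app]
      have he1 : t (M x) * t c * t (M' x) = 1 := by
        refine hG.sharp _ (G.mul_mem (G.mul_mem hU.1 hT.1) hV.1) (a := a) (b := b) (c := x) (d := y)
          (by grind [D4]) ?_ ?_ (hfixx x h1 h3) (hfixx y h2 h4)
        · simp [hV.2.1, hT.2.1, hU.2.1]
        · simp [hV.2.2.1, hT.2.2.1, hU.2.2.1]
      have hv : ∀ z, t (M' x) z = t c (t (M x) z) := by
        intro z
        have h5' := congrArg (fun f => f z) he1
        simp only [Perm.mul_apply, Perm.one_apply] at h5'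
        have h6 := congrArg (t (M x)) h5'
        rw [hU.app] at h6
        have h7 := congrArg (t c) h6
        rw [hTT] at h7
        exact h7
      have hvv : t c (M' x) = t (M x) (M' x) := by
        have h5' := hv (M' x)
        rw [hV.2.2.2.1] at h5'
        have h6 := congrArg (t c) h5'
        rw [hTT] at h6
        exact h6
      have huc : c = M x := hG.t_key hodd h5 hab ht hca hcb hua hub hva hvb hvv
      apply hV.2.2.2.2.2
      ext z
      have := hv z
      rw [← huc, hTT] at this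
      simpa using this
  rw [Finset.card_sdiff_of_subset (Finset.subset_univ _), Finset.card_univ, Finset.card_pair hab,
    Finset.card_product] at hcard
  have hg1 : g ≠ 1 := by
    rintro rfl
    exact hab (by simpa using hga)
  have hg'1 : g * t c ≠ 1 := by
    intro h
    rw [h] at hg'a
    exact hab (by simpa using hg'a)
  have c1 := hG.fx_card_le hg hg1
  have c2 := hG.fx_card_le hg'G hg'1
  have m1 : (fx g).card ≡ Fintype.card α [MOD 2] :=
    haveI : Fact (Nat.Prime 2) := ⟨Nat.prime_two⟩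
    fx_card_modEq g 2 (by rw [pow_two, hg2])
  have m2 : (fx (g * t c)).card ≡ Fintype.card α [MOD 2] :=
    haveI : Fact (Nat.Prime 2) := ⟨Nat.prime_two⟩
    fx_card_modEq _ 2 (by rw [pow_two, hg'2])
  have oddn : Fintype.card α % 2 = 1 := Nat.odd_iff.mp hodd
  unfold Nat.ModEq at m1 m2
  have hmod : Fintype.card α % 3 = 2 := by
    have hc1 : (fx g).card = 3 ∨ (fx (g * t c)).card = 3 := by
      by_contra hcon
      push Not at hcon
      have e1 : (fx g).card = 1 := by omega
      have e2 : (fx (g * t c)).card = 1 := by omega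
      rw [e1, e2] at hcard
      omega
    rcases hc1 with h3 | h3
    · obtain ⟨u, hu, huc⟩ := Finset.exists_mem_ne (by omega : 1 < (fx g).card) c
      rw [mem_fx] at hu
      have hua : u ≠ a := by
        rintro rfl
        exact hab (hu.symm.trans hga)
      have hub : u ≠ b := by
        rintro rfl
        exact hab (hgb.symm.trans hu)
      exact hG.mod3_of_fix3 hodd h5 hab ht hg hga hgb hg2 hca hcb hua hub huc hgc hu h3
    · obtain ⟨u, hu, huc⟩ := Finset.exists_mem_ne (by omega : 1 < (fx (g * t c)).card) c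
      rw [mem_fx] at hu
      have hua : u ≠ a := by
        rintro rfl
        exact hab (hu.symm.trans hg'a)
      have hub : u ≠ b := by
        rintro rfl
        exact hab (hg'b.symm.trans hu)
      exact hG.mod3_of_fix3 hodd h5 hab ht hg'G hg'a hg'b hg'2 hca hcb hua hub huc hg'c hu h3
  have hle : (fx g).card * (fx (g * t c)).card ≤ 9 := by
    have := Nat.mul_le_mul c1 c2
    omega
  have : Fintype.card α ≤ 11 := by omega
  omega

/-- The degrees of sharply four-transitive groups. -/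
theorem degree (hn4 : 4 ≤ Fintype.card α) :
    Fintype.card α = 4 ∨ Fintype.card α = 5 ∨ Fintype.card α = 6 ∨ Fintype.card α = 11 := by
  rcases Nat.even_or_odd (Fintype.card α) with h | h
  · have h1 := hG.even_case hn4 h
    rcases h with ⟨k, hk⟩
    omega
  · rcases hG.odd_case hn4 h with h1 | h1 <;> omega

end S4

end CfsgLib.Sharp
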