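/-
Sharply multiply transitive groups with odd codegree of the base: the setwise stabiliser of a base
fixes one further point, which produces an invariant Steiner system.
-/
import Cfsg.Agent.Lib.Sharp.Four2
import Cfsg.Prelude.Def_Sporadic_a

set_option autoImplicit false

namespace CfsgLib.Sharp

open Cfsg Equiv Equiv.Perm
open scoped Pointwise

variable {α : Type*} [Fintype α] [DecidableEq α] {G : Subgroup (Perm α)}

/-- Sharp `k`-fold transitivity in a plain form. -/
structure Sk (k : ℕ) (G : Subgroup (Perm α)) : Prop where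
  real : ∀ x y : Fin k ↪ α, ∃ g ∈ G, ∀ i, g (x i) = y i
  sharp : ∀ g ∈ G, ∀ x : Fin k ↪ α, (∀ i, g (x i) = x i) → g = 1

theorem Sk_of_inst (k : ℕ) (G : Subgroup (Perm α)) [MulAction.IsMultiplyPretransitive G α k]
    (hsharp : ∀ x : Fin k ↪ α, MulAction.stabilizer G x = ⊥) : Sk k G := by
  constructor
  · intro x y
    obtain ⟨g, hg⟩ := MulAction.exists_smul_eq G x y
    refine ⟨g, g.2, fun i => ?_⟩
    rw [← hg]
    rfl
  · intro g hg x hx
    have h : (⟨g, hg⟩ : G) ∈ MulAction.stabilizer G x := by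
      rw [MulAction.mem_stabilizer_iff]
      ext i
      exact hx i
    rw [hsharp x, Subgroup.mem_bot] at h
    exact congrArg Subtype.val h

theorem D4.emb {a b c d : α} (hd : D4 a b c d) : ∃ x : Fin 4 ↪ α, x 0 = a ∧ x 1 = b ∧ x 2 = c ∧ x 3 = d := by
  refine ⟨⟨![a, b, c, d], ?_⟩, rfl, rfl, rfl, rfl⟩
  obtain ⟨h1, h2, h3, h4, h5, h6⟩ := hd
  intro i j hij
  fin_cases i <;> fin_cases j <;> first
    | rfl
    | (exfalso; simp at hij; grind)

theorem Sk.toS4 (h : Sk 4 G) : S4 G := by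
  constructor
  · intro a b c d a' b' c' d' hd hd'
    obtain ⟨x, hx0, hx1, hx2, hx3⟩ := D4.emb hd
    obtain ⟨y, hy0, hy1, hy2, hy3⟩ := D4.emb hd'
    obtain ⟨g, hg, hgi⟩ := h.real x y
    refine ⟨g, hg, ?_, ?_, ?_, ?_⟩
    · rw [← hx0, hgi, hy0]
    · rw [← hx1, hgi, hy1]
    · rw [← hx2, hgi, hy2]
    · rw [← hx3, hgi, hy3]
  · intro g hg a b c d hd h1 h2 h3 h4
    obtain ⟨x, hx0, hx1, hx2, hx3⟩ := D4.emb hd
    refine h.sharp g hg x fun i => ?_
    fin_cases i
    · simpa [hx0] using h1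
    · simpa [hx1] using h2
    · simpa [hx2] using h3
    · simpa [hx3] using h4

/-- Elements acting as a transposition on a base. -/
def Vt (G : Subgroup (Perm α)) (T : Finset α) (p q : α) (v : Perm α) : Prop :=
  v ∈ G ∧ v p = q ∧ v q = p ∧ ∀ c ∈ T, c ≠ p → c ≠ q → v c = c

/-- An extra fixed point of the transposition. -/
def Ex (G : Subgroup (Perm α)) (T : Finset α) (p q x : α) : Prop :=
  x ∉ T ∧ ∃ v, Vt G T p q v ∧ v x = x

/-- The further point attached to a base. -/
def Good (G : Subgroup (Perm α)) (T : Finset α) (x : α) : Prop :=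
  x ∉ T ∧ ∀ g ∈ G, g • T = T → g x = x

/-- The blocks. -/
def Bl (G : Subgroup (Perm α)) (k : ℕ) : Set (Finset α) :=
  {b | ∃ T x, T.card = k ∧ Good G T x ∧ b = insert x T}

theorem smul_eq_of_maps {g : Perm α} {S : Finset α} (h : ∀ t ∈ S, g t ∈ S) : g • S = S := by
  apply Finset.eq_of_subset_of_card_le
  · intro z hz
    obtain ⟨t, ht, rfl⟩ := Finset.mem_smul_finset.mp hz
    exact h t ht
  · rw [Finset.card_smul_finset]

theorem mem_of_smul_fix {g : Perm α} {S : Finset α} (h : g • S = S) {t : α} (ht : t ∈ S) : g t ∈ S := by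
  rw [← h]
  exact Finset.smul_mem_smul_finset ht

theorem inv_mem_of_smul_fix {g : Perm α} {S : Finset α} (h : g • S = S) {t : α} (ht : t ∈ S) : g⁻¹ t ∈ S := by
  have : g⁻¹ • t ∈ S := by
    rw [Finset.inv_smul_mem_iff, h]
    exact ht
  exact this

theorem Vt.maps {T : Finset α} {p q : α} (hp : p ∈ T) (hq : q ∈ T) {v : Perm α} (h : Vt G T p q v) {t : α}
    (ht : t ∈ T) : v t ∈ T := by
  by_cases h1 : t = p
  · subst h1
    rw [h.2.1]
    exact hq
  · by_cases h2 : t = q
    · subst h2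
      rw [h.2.2.1]
      exact hp
    · rw [h.2.2.2 t ht h1 h2]
      exact ht

theorem Vt.smul_eq {T : Finset α} {p q : α} (hp : p ∈ T) (hq : q ∈ T) {v : Perm α} (h : Vt G T p q v) :
    v • T = T := smul_eq_of_maps fun _ ht => h.maps hp hq ht

theorem Vt.symm {T : Finset α} {p q : α} {v : Perm α} (h : Vt G T p q v) : Vt G T q p v :=
  ⟨h.1, h.2.2.1, h.2.1, fun c hc h1 h2 => h.2.2.2 c hc h2 h1⟩

theorem Ex.symm {T : Finset α} {p q x : α} (h : Ex G T p q x) : Ex G T q p x := by
  obtain ⟨hx, v, hv, hvx⟩ := h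
  exact ⟨hx, v, hv.symm, hvx⟩

namespace Sk

variable {k : ℕ} (hG : Sk k G)
include hG

theorem real_T {T : Finset α} (hT : T.card = k) (π : Perm α) : ∃ g ∈ G, ∀ t ∈ T, g t = π t := by
  let e : T ≃ Fin k := T.equivFinOfCardEq hT
  let x : Fin k ↪ α := ⟨fun i => (e.symm i).1, fun i j h => e.symm.injective (Subtype.ext h)⟩
  let y : Fin k ↪ α := x.trans π.toEmbedding
  obtain ⟨g, hg, h⟩ := hG.real x y
  refine ⟨g, hg, fun t ht => ?_⟩
  have h1 := h (e ⟨t, ht⟩)
  have hx : x (e ⟨t, ht⟩) = t := by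
    show (e.symm (e ⟨t, ht⟩)).1 = t
    rw [Equiv.symm_apply_apply]
  rw [show y (e ⟨t, ht⟩) = π (x (e ⟨t, ht⟩)) from rfl, hx] at h1
  exact h1

theorem sharp_T {T : Finset α} (hT : T.card = k) {g : Perm α} (hg : g ∈ G) (h : ∀ t ∈ T, g t = t) : g = 1 := by
  let e : T ≃ Fin k := T.equivFinOfCardEq hT
  let x : Fin k ↪ α := ⟨fun i => (e.symm i).1, fun i j h => e.symm.injective (Subtype.ext h)⟩
  exact hG.sharp g hg x (fun i => h _ (e.symm i).2)

theorem fx_card_lt {g : Perm α} (hg : g ∈ G) (h1 : g ≠ 1) : (fx g).card < k := by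
  by_contra hc
  push Not at hc
  obtain ⟨T, hT, hc⟩ := Finset.exists_subset_card_eq hc
  exact h1 (hG.sharp_T hc hg (fun t ht => mem_fx.1 (hT ht)))

theorem eq_of_agree {T : Finset α} (hT : T.card = k) {g g' : Perm α} (hg : g ∈ G) (hg' : g' ∈ G)
    (h : ∀ t ∈ T, g t = g' t) : g = g' := by
  have := hG.sharp_T hT (G.mul_mem (G.inv_mem hg') hg) (fun t ht => by simp [h t ht])
  exact (inv_mul_eq_one.mp this).symm

theorem card_eq (hk : k ≤ Fintype.card α) : Nat.card G = (Fintype.card α).descFactorial k := by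
  have hne : Nonempty (Fin k ↪ α) := Function.Embedding.nonempty_of_card_le (by simpa using hk)
  obtain ⟨x₀⟩ := hne
  let f : G → (Fin k ↪ α) := fun g => x₀.trans (g : Perm α).toEmbedding
  have hf : Function.Bijective f := by
    constructor
    · intro g g' h
      apply Subtype.ext
      have h1 : ∀ i, (g' : Perm α)⁻¹ ((g : Perm α) (x₀ i)) = x₀ i := by
        intro i
        have := congrArg (fun e : Fin k ↪ α => e i) h
        simp only [f, Function.Embedding.trans_apply, Equiv.coe_toEmbedding] at this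
        simp [this]
      have := hG.sharp _ (G.mul_mem (G.inv_mem g'.2) g.2) x₀ (by simpa using h1)
      exact (inv_mul_eq_one.mp this).symm
    · intro y
      obtain ⟨g, hg, h⟩ := hG.real x₀ y
      refine ⟨⟨g, hg⟩, ?_⟩
      ext i
      exact h i
  rw [Nat.card_congr (Equiv.ofBijective f hf), Nat.card_eq_fintype_card, Fintype.card_embedding_eq,
    Fintype.card_fin]

theorem exists_Vt {T : Finset α} (hT : T.card = k) {p q : α} (hp : p ∈ T) (hq : q ∈ T) : ∃ v, Vt G T p q v := by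
  obtain ⟨g, hg, h⟩ := hG.real_T hT (Equiv.swap p q)
  refine ⟨g, hg, ?_, ?_, ?_⟩
  · rw [h p hp, Equiv.swap_apply_left]
  · rw [h q hq, Equiv.swap_apply_right]
  · intro c hc h1 h2
    rw [h c hc, Equiv.swap_apply_of_ne_of_ne h1 h2]

theorem Vt_unique {T : Finset α} (hT : T.card = k) {p q : α} (hp : p ∈ T) (hq : q ∈ T) {v v' : Perm α}
    (h : Vt G T p q v) (h' : Vt G T p q v') : v = v' := by
  refine hG.eq_of_agree hT h.1 h'.1 fun t ht => ?_
  by_cases h1 : t = p
  · subst h1
    rw [h.2.1, h'.2.1]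
  · by_cases h2 : t = q
    · subst h2
      rw [h.2.2.1, h'.2.2.1]
    · rw [h.2.2.2 t ht h1 h2, h'.2.2.2 t ht h1 h2]

theorem Vt_invol {T : Finset α} (hT : T.card = k) {p q : α} (hp : p ∈ T) (hq : q ∈ T) {v : Perm α}
    (h : Vt G T p q v) : v * v = 1 := by
  refine hG.sharp_T hT (G.mul_mem h.1 h.1) fun t ht => ?_
  by_cases h1 : t = p
  · subst h1
    simp [h.2.1, h.2.2.1]
  · by_cases h2 : t = q
    · subst h2
      simp [h.2.1, h.2.2.1]
    · simp [h.2.2.2 t ht h1 h2]

/-- The fixed points of a transposition include the rest of the base. -/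
theorem sub_fx {T : Finset α} {p q : α} {v : Perm α} (h : Vt G T p q v) :
    (T.erase p).erase q ⊆ fx v := by
  intro t ht
  simp only [Finset.mem_erase] at ht
  exact mem_fx.2 (h.2.2.2 t ht.2.2 ht.2.1 ht.1)

theorem Ex_exists (hpar : (Fintype.card α + k) % 2 = 1) {T : Finset α} (hT : T.card = k) {p q : α}
    (hp : p ∈ T) (hq : q ∈ T) (hpq : p ≠ q) : ∃ x, Ex G T p q x := by
  obtain ⟨v, hv⟩ := hG.exists_Vt hT hp hq
  have hv2 := hG.Vt_invol hT hp hq hv
  have hv1 : v ≠ 1 := by
    rintro rfl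
    exact hpq (by simpa using hv.2.1)
  have h1 := hG.fx_card_lt hv.1 hv1
  have h2 : (fx v).card ≡ Fintype.card α [MOD 2] :=
    haveI : Fact (Nat.Prime 2) := ⟨Nat.prime_two⟩
    fx_card_modEq v 2 (by rw [pow_two, hv2])
  have h3 := Finset.card_le_card (hG.sub_fx hv)
  have h4 : ((T.erase p).erase q).card + 2 = k := by
    rw [Finset.card_erase_of_mem (Finset.mem_erase.2 ⟨hpq.symm, hq⟩), Finset.card_erase_of_mem hp, hT]
    have := Finset.card_le_card (Finset.insert_subset hp (Finset.singleton_subset_iff.2 hq))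
    rw [Finset.card_pair hpq, hT] at this
    omega
  have h5 : ((T.erase p).erase q).card < (fx v).card := by
    unfold Nat.ModEq at h2
    omega
  obtain ⟨x, hx, hx2⟩ := Finset.exists_mem_notMem_of_card_lt_card h5
  have hvx := mem_fx.1 hx
  refine ⟨x, ?_, v, hv, hvx⟩
  intro hxT
  simp only [Finset.mem_erase, not_and] at hx2
  by_cases hxq : x = q
  · subst hxq
    rw [hv.2.2.1] at hvx
    exact hpq hvx
  · by_cases hxp : x = p
    · subst hxp
      rw [hv.2.1] at hvx
      exact hpq hvx.symm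
    · exact hx2 hxq hxp hxT

theorem Ex_apply {T : Finset α} (hT : T.card = k) {p q x : α} (hp : p ∈ T) (hq : q ∈ T) (h : Ex G T p q x)
    {v : Perm α} (hv : Vt G T p q v) : v x = x := by
  obtain ⟨_, v', hv', hx⟩ := h
  rw [hG.Vt_unique hT hp hq hv hv']
  exact hx

theorem Ex_unique {T : Finset α} (hT : T.card = k) {p q x x' : α} (hp : p ∈ T) (hq : q ∈ T) (hpq : p ≠ q)
    (h : Ex G T p q x) (h' : Ex G T p q x') : x = x' := by
  obtain ⟨hxT, v, hv, hvx⟩ := h
  have hvx' := hG.Ex_apply hT hp hq h' hv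
  by_contra hne
  have hv1 : v ≠ 1 := by
    rintro rfl
    exact hpq (by simpa using hv.2.1)
  have h1 := hG.fx_card_lt hv.1 hv1
  have hsub : insert x (insert x' ((T.erase p).erase q)) ⊆ fx v := by
    intro t ht
    simp only [Finset.mem_insert] at ht
    rcases ht with rfl | rfl | ht
    · exact mem_fx.2 hvx
    · exact mem_fx.2 hvx'
    · exact hG.sub_fx hv ht
  have h2 := Finset.card_le_card hsub
  have hx'T : x' ∉ (T.erase p).erase q := fun hm => h'.1 (Finset.mem_of_mem_erase (Finset.mem_of_mem_erase hm))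
  have hxT2 : x ∉ insert x' ((T.erase p).erase q) := by
    simp only [Finset.mem_insert, not_or]
    exact ⟨hne, fun hm => hxT (Finset.mem_of_mem_erase (Finset.mem_of_mem_erase hm))⟩
  rw [Finset.card_insert_of_notMem hxT2, Finset.card_insert_of_notMem hx'T,
    Finset.card_erase_of_mem (Finset.mem_erase.2 ⟨hpq.symm, hq⟩), Finset.card_erase_of_mem hp, hT] at h2
  have := Finset.card_le_card (Finset.insert_subset hp (Finset.singleton_subset_iff.2 hq))
  rw [Finset.card_pair hpq, hT] at this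
  omega

/-- Transport of the extra fixed point. -/
theorem Ex_smul {T : Finset α} {p q x : α} {g : Perm α} (hg : g ∈ G) (hgT : g • T = T) (h : Ex G T p q x) :
    Ex G T (g p) (g q) (g x) := by
  obtain ⟨hxT, v, hv, hvx⟩ := h
  refine ⟨?_, g * v * g⁻¹, ⟨G.mul_mem (G.mul_mem hg hv.1) (G.inv_mem hg), ?_, ?_, ?_⟩, ?_⟩
  · intro hm
    apply hxT
    have := inv_mem_of_smul_fix hgT hm
    simpa using this
  · simp [hv.2.1]
  · simp [hv.2.2.1]
  · intro c hc h1 h2
    have h3 : g⁻¹ c ∈ T := inv_mem_of_smul_fix hgT hc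
    have h4 : g⁻¹ c ≠ p := by
      intro e
      apply h1
      rw [← e]
      simp
    have h5 : g⁻¹ c ≠ q := by
      intro e
      apply h2
      rw [← e]
      simp
    rw [Perm.mul_apply, Perm.mul_apply, hv.2.2.2 _ h3 h4 h5]
    simp
  · simp [hvx]

/-- Disjoint transpositions have the same extra fixed point. -/
theorem Ex_disjoint {T : Finset α} (hT : T.card = k) {p q r s x : α}
    (hp : p ∈ T) (hq : q ∈ T) (hr : r ∈ T) (hs : s ∈ T) (hpq : p ≠ q) (h1 : p ≠ r) (h2 : p ≠ s)
    (h3 : q ≠ r) (h4 : q ≠ s) (h : Ex G T p q x) : Ex G T r s x := by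
  obtain ⟨w, hw⟩ := hG.exists_Vt hT hr hs
  have e := hG.Ex_smul hw.1 (hw.smul_eq hr hs) h
  rw [hw.2.2.2 p hp h1 h2, hw.2.2.2 q hq h3 h4] at e
  have e1 := hG.Ex_unique hT hp hq hpq e h
  exact ⟨h.1, w, hw, e1⟩

/-- The point is extra for every transposition of the base. -/
def AllEx (G : Subgroup (Perm α)) (T : Finset α) (x : α) : Prop :=
  ∀ p ∈ T, ∀ q ∈ T, p ≠ q → Ex G T p q x

theorem exists_AllEx (hk : 5 ≤ k) (hpar : (Fintype.card α + k) % 2 = 1) {T : Finset α} (hT : T.card = k) :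
    ∃ x, AllEx G T x := by
  obtain ⟨p₀, hp₀, q₀, hq₀, hne⟩ := Finset.one_lt_card.1 (by omega : 1 < T.card)
  obtain ⟨x, hx⟩ := hG.Ex_exists hpar hT hp₀ hq₀ hne
  refine ⟨x, fun p hp q hq hpq => ?_⟩
  by_cases hdis : p₀ ≠ p ∧ p₀ ≠ q ∧ q₀ ≠ p ∧ q₀ ≠ q
  · exact hG.Ex_disjoint hT hp₀ hq₀ hp hq hne hdis.1 hdis.2.1 hdis.2.2.1 hdis.2.2.2 hx
  · have hc : ({p₀, q₀, p, q} : Finset α).card ≤ 3 := by
      have h4 : p₀ = p ∨ p₀ = q ∨ q₀ = p ∨ q₀ = q := by
        by_contra hcon
        push Not at hcon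
        exact hdis hcon
      rcases h4 with rfl | rfl | rfl | rfl
      · have : ({p₀, q₀, p₀, q} : Finset α) ⊆ {p₀, q₀, q} := by
          intro z hz
          simp only [Finset.mem_insert, Finset.mem_singleton] at hz ⊢
          tauto
        exact (Finset.card_le_card this).trans Finset.card_le_three
      · have : ({p₀, q₀, p, p₀} : Finset α) ⊆ {p₀, q₀, p} := by
          intro z hz
          simp only [Finset.mem_insert, Finset.mem_singleton] at hz ⊢
          tauto
        exact (Finset.card_le_card this).trans Finset.card_le_three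
      · have : ({p₀, q₀, q₀, q} : Finset α) ⊆ {p₀, q₀, q} := by
          intro z hz
          simp only [Finset.mem_insert, Finset.mem_singleton] at hz ⊢
          tauto
        exact (Finset.card_le_card this).trans Finset.card_le_three
      · have : ({p₀, q₀, p, q₀} : Finset α) ⊆ {p₀, q₀, p} := by
          intro z hz
          simp only [Finset.mem_insert, Finset.mem_singleton] at hz ⊢
          tauto
        exact (Finset.card_le_card this).trans Finset.card_le_three
    have hc2 := Finset.le_card_sdiff ({p₀, q₀, p, q} : Finset α) T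
    obtain ⟨r, hr, s, hs, hrs⟩ := Finset.one_lt_card.1 (by omega : 1 < (T \ ({p₀, q₀, p, q} : Finset α)).card)
    simp only [Finset.mem_sdiff, Finset.mem_insert, Finset.mem_singleton, not_or] at hr hs
    have e1 : Ex G T r s x := hG.Ex_disjoint hT hp₀ hq₀ hr.1 hs.1 hne (Ne.symm hr.2.1) (Ne.symm hs.2.1)
      (Ne.symm hr.2.2.1) (Ne.symm hs.2.2.1) hx
    exact hG.Ex_disjoint hT hr.1 hs.1 hp hq hrs hr.2.2.2.1 hr.2.2.2.2 hs.2.2.2.1 hs.2.2.2.2 e1

theorem good_of_all (h2 : 2 ≤ k) {T : Finset α} (hT : T.card = k) {x : α} (h : AllEx G T x) : Good G T x := by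
  obtain ⟨p, hp, q, hq, hpq⟩ := Finset.one_lt_card.1 (by omega : 1 < T.card)
  refine ⟨(h p hp q hq hpq).1, fun g hg hgT => ?_⟩
  have e := hG.Ex_smul hg hgT (h p hp q hq hpq)
  have hne : g p ≠ g q := fun e => hpq (g.injective e)
  exact hG.Ex_unique hT (mem_of_smul_fix hgT hp) (mem_of_smul_fix hgT hq) hne e
    (h _ (mem_of_smul_fix hgT hp) _ (mem_of_smul_fix hgT hq) hne)

theorem good_Ex {T : Finset α} (hT : T.card = k) {x : α} (hx : Good G T x) {p q : α} (hp : p ∈ T) (hq : q ∈ T) :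
    Ex G T p q x := by
  obtain ⟨v, hv⟩ := hG.exists_Vt hT hp hq
  exact ⟨hx.1, v, hv, hx.2 v hv.1 (hv.smul_eq hp hq)⟩

theorem good_unique (h2 : 2 ≤ k) {T : Finset α} (hT : T.card = k) {x x' : α} (hx : Good G T x)
    (hx' : Good G T x') : x = x' := by
  obtain ⟨p, hp, q, hq, hpq⟩ := Finset.one_lt_card.1 (by omega : 1 < T.card)
  exact hG.Ex_unique hT hp hq hpq (hG.good_Ex hT hx hp hq) (hG.good_Ex hT hx' hp hq)

theorem block_eq (hk : 3 ≤ k) {T s : Finset α} {x y : α} (hT : T.card = k) (hx : Good G T x) (hs : s.card = k)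
    (hy : Good G s y) (hsb : s ⊆ insert x T) : insert x T = insert y s := by
  by_cases hsT : s = T
  · subst hsT
    rw [hG.good_unique (by omega) hT hx hy]
  have hxs : x ∈ s := by
    by_contra hxs
    apply hsT
    apply Finset.eq_of_subset_of_card_le
    · intro t ht
      have := hsb ht
      simp only [Finset.mem_insert] at this
      rcases this with rfl | h
      · exact absurd ht hxs
      · exact h
    · rw [hT, hs]
  obtain ⟨a, haT, has⟩ : ∃ a ∈ T, a ∉ s := by
    by_contra hcon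
    push Not at hcon
    exact hsT (Finset.eq_of_subset_of_card_le hcon (by rw [hs, hT])).symm
  have hseq : s = insert x (T.erase a) := by
    apply Finset.eq_of_subset_of_card_le
    · intro t ht
      have := hsb ht
      simp only [Finset.mem_insert] at this ⊢
      rcases this with h | h
      · exact Or.inl h
      · exact Or.inr (Finset.mem_erase.2 ⟨(by rintro rfl; exact has ht), h⟩)
    · rw [Finset.card_insert_of_notMem (fun h => hx.1 (Finset.mem_of_mem_erase h)),
        Finset.card_erase_of_mem haT, hT, hs]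
      omega
  have hone : 1 < (T.erase a).card := by
    rw [Finset.card_erase_of_mem haT, hT]
    omega
  obtain ⟨p, hp, q, hq, hpq⟩ := Finset.one_lt_card.1 hone
  have hpT := Finset.mem_of_mem_erase hp
  have hqT := Finset.mem_of_mem_erase hq
  have hpa : p ≠ a := Finset.ne_of_mem_erase hp
  have hqa : q ≠ a := Finset.ne_of_mem_erase hq
  obtain ⟨v, hv⟩ := hG.exists_Vt hT hpT hqT
  have hvx : v x = x := hx.2 v hv.1 (hv.smul_eq hpT hqT)
  have hva : v a = a := hv.2.2.2 a haT hpa.symm hqa.symm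
  have hvs : v • s = s := smul_eq_of_maps (fun t ht => by
    rw [hseq] at ht ⊢
    simp only [Finset.mem_insert, Finset.mem_erase] at ht ⊢
    rcases ht with rfl | ⟨h1, h2⟩
    · exact Or.inl hvx
    · right
      refine ⟨?_, hv.maps hpT hqT h2⟩
      intro e
      apply h1
      apply v.injective
      rw [e, hva])
  have hvy : v y = y := hy.2 v hv.1 hvs
  have hya : y = a := by
    by_contra hne
    have hyT : y ∉ T := by
      intro hm
      exact hy.1 (by
        rw [hseq]
        exact Finset.mem_insert_of_mem (Finset.mem_erase.2 ⟨hne, hm⟩))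
    have e1 : Ex G T p q y := ⟨hyT, v, hv, hvy⟩
    have e2 : Ex G T p q x := ⟨hx.1, v, hv, hvx⟩
    have e3 := hG.Ex_unique hT hpT hqT hpq e1 e2
    exact hy.1 (e3 ▸ hxs)
  subst hya
  rw [hseq]
  ext t
  simp only [Finset.mem_insert, Finset.mem_erase]
  by_cases h : t = y
  · subst h
    simp [haT]
  · simp [h]

theorem steiner_of_good (hk : 3 ≤ k) (hex : ∀ T : Finset α, T.card = k → ∃ x, Good G T x) :
    IsSteinerSystem k (k + 1) (Bl G k) := by
  refine ⟨?_, ?_⟩
  · rintro b ⟨T, x, hT, hx, rfl⟩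
    rw [Finset.card_insert_of_notMem hx.1, hT]
  · intro s hs
    obtain ⟨y, hy⟩ := hex s hs
    refine ⟨insert y s, ⟨⟨s, y, hs, hy, rfl⟩, Finset.subset_insert _ _⟩, ?_⟩
    rintro b ⟨⟨T, x, hT, hx, rfl⟩, hsb⟩
    exact hG.block_eq hk hT hx hs hy hsb

omit hG in
theorem bl_smul {g : Perm α} (hg : g ∈ G) {b : Finset α} (hb : b ∈ Bl G k) : g • b ∈ Bl G k := by
  obtain ⟨T, x, hT, hx, rfl⟩ := hb
  refine ⟨g • T, g x, by rw [Finset.card_smul_finset, hT], ⟨?_, ?_⟩, ?_⟩
  · intro h
    exact hx.1 ((Finset.smul_mem_smul_finset_iff g).1 h)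
  · intro h hh hT'
    have e : (g⁻¹ * h * g) • T = T := by
      rw [mul_smul, mul_smul, hT', inv_smul_smul]
    have h1 := hx.2 _ (G.mul_mem (G.mul_mem (G.inv_mem hg) hh) hg) e
    rw [Perm.mul_apply, Perm.mul_apply, Perm.inv_eq_iff_eq] at h1
    exact h1
  · rw [Finset.smul_finset_insert]
    rfl

omit hG in
theorem le_aut : G ≤ setSystemAut (Bl G k) := by
  intro g hg
  rw [setSystemAut, MulAction.mem_stabilizer_iff]
  ext b
  rw [Set.mem_smul_set]
  constructor
  · rintro ⟨b', hb', rfl⟩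
    exact bl_smul hg hb'
  · intro hb
    exact ⟨g⁻¹ • b, bl_smul (G.inv_mem hg) hb, smul_inv_smul g b⟩

end Sk

end CfsgLib.Sharp
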