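/-
Sharply multiply transitive groups: degree theorems and recognition of the two Mathieu groups.
-/
import Cfsg.Agent.Lib.Sharp.Blocks

set_option autoImplicit false

namespace CfsgLib.Sharp

open Cfsg Equiv Equiv.Perm
open scoped Pointwise

universe u

variable {α : Type u} [Fintype α] [DecidableEq α] {G : Subgroup (Perm α)}

theorem two_eq (hG : Sk 4 G) {T : Finset α} (hT : T.card = 4) {a b c d x₁ x₂ x₃ : α} (ha : a ∈ T) (hb : b ∈ T)
    (hc : c ∈ T) (hd : d ∈ T) (hab : a ≠ b) (hac : a ≠ c) (had : a ≠ d) (hbc : b ≠ c) (hbd : b ≠ d) (hcd : c ≠ d)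
    (h₁ : Ex G T a b x₁) (h₂ : Ex G T a c x₂) (h₃ : Ex G T a d x₃) (e : x₂ = x₃) : x₁ = x₂ := by
  obtain ⟨v, hv⟩ := hG.exists_Vt hT ha hb
  have e1 := hG.Ex_smul hv.1 (hv.smul_eq ha hb) h₂
  rw [hv.2.1, hv.2.2.2 c hc hac.symm hbc.symm] at e1
  have E3 : Ex G T b c x₃ := hG.Ex_disjoint hT ha hd hb hc had hab hac hbd.symm hcd.symm h₃
  have e2 := hG.Ex_unique hT hb hc hbc e1 E3
  have e3 : v x₂ = x₂ := e2.trans e.symm
  exact hG.Ex_unique hT ha hb hab h₁ ⟨h₂.1, v, hv, e3⟩

/-- In odd degree, the setwise stabiliser of a four-set fixes one further point. -/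
theorem exists_good4 (hG : Sk 4 G) (hodd : Odd (Fintype.card α)) (h5 : 5 ≤ Fintype.card α) {T : Finset α}
    (hT : T.card = 4) : ∃ x, Good G T x := by
  obtain ⟨a, t, hat, rfl, ht⟩ := Finset.card_eq_succ.mp hT
  obtain ⟨b, c, d, hbc, hbd, hcd, rfl⟩ := Finset.card_eq_three.mp ht
  simp only [Finset.mem_insert, Finset.mem_singleton, not_or] at hat
  obtain ⟨hab, hac, had⟩ : a ≠ b ∧ a ≠ c ∧ a ≠ d := hat
  generalize hTe : (insert a {b, c, d} : Finset α) = T at hT
  have ha : a ∈ T := by rw [← hTe]; simp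
  have hb : b ∈ T := by rw [← hTe]; simp
  have hc : c ∈ T := by rw [← hTe]; simp
  have hd : d ∈ T := by rw [← hTe]; simp
  have hpar : (Fintype.card α + 4) % 2 = 1 := by
    rcases hodd with ⟨k, hk⟩
    omega
  obtain ⟨x₁, h₁⟩ := hG.Ex_exists hpar hT ha hb hab
  obtain ⟨x₂, h₂⟩ := hG.Ex_exists hpar hT ha hc hac
  obtain ⟨x₃, h₃⟩ := hG.Ex_exists hpar hT ha hd had
  have E1 : Ex G T c d x₁ := hG.Ex_disjoint hT ha hb hc hd hab hac had hbc hbd h₁
  have E2 : Ex G T b d x₂ := hG.Ex_disjoint hT ha hc hb hd hac hab had hbc.symm hcd h₂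
  have E3 : Ex G T b c x₃ := hG.Ex_disjoint hT ha hd hb hc had hab hac hbd.symm hcd.symm h₃
  by_cases heq : x₁ = x₂ ∧ x₁ = x₃
  · obtain ⟨rfl, rfl⟩ := heq
    refine ⟨x₁, hG.good_of_all (by norm_num) hT ?_⟩
    intro p hp q hq hpq
    rw [← hTe] at hp hq
    simp only [Finset.mem_insert, Finset.mem_singleton] at hp hq
    rcases hp with rfl | rfl | rfl | rfl <;> rcases hq with rfl | rfl | rfl | rfl <;> first
      | exact absurd rfl hpq
      | exact h₁
      | exact h₁.symm
      | exact h₂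
      | exact h₂.symm
      | exact h₃
      | exact h₃.symm
      | exact E1
      | exact E1.symm
      | exact E2
      | exact E2.symm
      | exact E3
      | exact E3.symm
  · exfalso
    have n23 : x₂ ≠ x₃ := fun e => by
      have e1 := two_eq hG hT ha hb hc hd hab hac had hbc hbd hcd h₁ h₂ h₃ e
      exact heq ⟨e1, e1.trans e⟩
    have n12 : x₁ ≠ x₂ := fun e => by
      have e1 := two_eq hG hT ha hd hb hc had hab hac hbd.symm hcd.symm hbc h₃ h₁ h₂ e
      exact heq ⟨e, e1.symm⟩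
    have n13 : x₁ ≠ x₃ := fun e => by
      have e1 := two_eq hG hT ha hc hb hd hac hab had hbc.symm hcd hbd h₂ h₁ h₃ e
      exact heq ⟨e1.symm, e⟩
    obtain ⟨vab, hvab⟩ := hG.exists_Vt hT ha hb
    obtain ⟨vcd, hvcd⟩ := hG.exists_Vt hT hc hd
    obtain ⟨vac, hvac⟩ := hG.exists_Vt hT ha hc
    obtain ⟨vbd, hvbd⟩ := hG.exists_Vt hT hb hd
    have vab_c : vab c = c := hvab.2.2.2 c hc hac.symm hbc.symm
    have vab_d : vab d = d := hvab.2.2.2 d hd had.symm hbd.symm
    have vcd_a : vcd a = a := hvcd.2.2.2 a ha hac had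
    have vcd_b : vcd b = b := hvcd.2.2.2 b hb hbc hbd
    have vac_b : vac b = b := hvac.2.2.2 b hb hab.symm hbc
    have vac_d : vac d = d := hvac.2.2.2 d hd had.symm hcd.symm
    have vbd_a : vbd a = a := hvbd.2.2.2 a ha hab had
    have vbd_c : vbd c = c := hvbd.2.2.2 c hc hbc.symm hcd
    have m1 : vcd x₂ = x₃ := by
      have e := hG.Ex_smul hvcd.1 (hvcd.smul_eq hc hd) h₂
      rw [vcd_a, hvcd.2.1] at e
      exact hG.Ex_unique hT ha hd had e h₃
    have m2 : vcd x₃ = x₂ := by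
      have e := hG.Ex_smul hvcd.1 (hvcd.smul_eq hc hd) h₃
      rw [vcd_a, hvcd.2.2.1] at e
      exact hG.Ex_unique hT ha hc hac e h₂
    have m3 : vab x₂ = x₃ := by
      have e := hG.Ex_smul hvab.1 (hvab.smul_eq ha hb) h₂
      rw [hvab.2.1, vab_c] at e
      exact hG.Ex_unique hT hb hc hbc e E3
    have m4 : vab x₃ = x₂ := by
      have e := hG.Ex_smul hvab.1 (hvab.smul_eq ha hb) h₃
      rw [hvab.2.1, vab_d] at e
      exact hG.Ex_unique hT hb hd hbd e E2
    have m5 : vbd x₁ = x₃ := by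
      have e := hG.Ex_smul hvbd.1 (hvbd.smul_eq hb hd) h₁
      rw [vbd_a, hvbd.2.1] at e
      exact hG.Ex_unique hT ha hd had e h₃
    have m6 : vbd x₃ = x₁ := by
      have e := hG.Ex_smul hvbd.1 (hvbd.smul_eq hb hd) h₃
      rw [vbd_a, hvbd.2.2.1] at e
      exact hG.Ex_unique hT ha hb hab e h₁
    have m7 : vac x₃ = x₁ := by
      have e := hG.Ex_smul hvac.1 (hvac.smul_eq ha hc) h₃
      rw [hvac.2.1, vac_d] at e
      exact hG.Ex_unique hT hc hd hcd e E1
    have m8 : vac x₁ = x₃ := by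
      have e := hG.Ex_smul hvac.1 (hvac.smul_eq ha hc) h₁
      rw [hvac.2.1, vac_b] at e
      exact hG.Ex_unique hT hc hb hbc.symm e E3.symm
    have f1 : vab x₁ = x₁ := hG.Ex_apply hT ha hb h₁ hvab
    have f2 : vcd x₁ = x₁ := hG.Ex_apply hT hc hd E1 hvcd
    have f3 : vac x₂ = x₂ := hG.Ex_apply hT ha hc h₂ hvac
    have f4 : vbd x₂ = x₂ := hG.Ex_apply hT hb hd E2 hvbd
    have hTset : ∀ t ∈ T, t = a ∨ t = b ∨ t = c ∨ t = d := by
      intro t ht
      rw [← hTe] at ht
      simpa using ht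
    have hu1 : S4.Tw G x₁ x₂ x₃ (vab * vcd) := by
      refine ⟨G.mul_mem hvab.1 hvcd.1, ?_, ?_, ?_, ?_, ?_⟩
      · rw [Perm.mul_apply, f2, f1]
      · rw [Perm.mul_apply, m1, m4]
      · rw [Perm.mul_apply, m2, m3]
      · refine hG.sharp_T hT (G.mul_mem (G.mul_mem hvab.1 hvcd.1) (G.mul_mem hvab.1 hvcd.1)) fun t ht => ?_
        rcases hTset t ht with rfl | rfl | rfl | rfl <;>
          simp [hvab.2.1, hvab.2.2.1, vab_c, vab_d, vcd_a, vcd_b, hvcd.2.1, hvcd.2.2.1]
      · intro e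
        have := congrArg (fun f => f a) e
        simp [vcd_a, hvab.2.1] at this
        exact hab this.symm
    have hu2 : S4.Tw G x₁ x₂ x₃ (vac * vbd) := by
      refine ⟨G.mul_mem hvac.1 hvbd.1, ?_, ?_, ?_, ?_, ?_⟩
      · rw [Perm.mul_apply, m5, m7]
      · rw [Perm.mul_apply, f4, f3]
      · rw [Perm.mul_apply, m6, m8]
      · refine hG.sharp_T hT (G.mul_mem (G.mul_mem hvac.1 hvbd.1) (G.mul_mem hvac.1 hvbd.1)) fun t ht => ?_
        rcases hTset t ht with rfl | rfl | rfl | rfl <;>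
          simp [hvac.2.1, hvac.2.2.1, vac_b, vac_d, vbd_a, vbd_c, hvbd.2.1, hvbd.2.2.1]
      · intro e
        have := congrArg (fun f => f a) e
        simp [vbd_a, hvac.2.1] at this
        exact hac this.symm
    have e := S4.Tw_unique hG.toS4 hodd h5 n12 (Ne.symm n13) (Ne.symm n23) hu1 hu2
    have e2 := congrArg (fun f => f a) e
    simp only [Perm.mul_apply, vcd_a, hvab.2.1, vbd_a, hvac.2.1] at e2
    exact hbc e2

theorem exists_good_big {k : ℕ} (hG : Sk k G) (hk : 5 ≤ k) (hpar : (Fintype.card α + k) % 2 = 1) {T : Finset α}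
    (hT : T.card = k) : ∃ x, Good G T x := by
  obtain ⟨x, hx⟩ := hG.exists_AllEx hk hpar hT
  exact ⟨x, hG.good_of_all (by omega) hT hx⟩

/-! ### Restriction to the stabiliser of a point -/

/-- The stabiliser of a point as a permutation group on the other points. -/
def restr (G : Subgroup (Perm α)) (z : α) : Subgroup (Perm {x // x ≠ z}) where
  carrier := {π | ∃ g ∈ G, g z = z ∧ ∀ x, g x.1 = (π x).1}
  mul_mem' := by
    rintro a b ⟨g, hg, hgz, hga⟩ ⟨h, hh, hhz, hhb⟩
    refine ⟨g * h, G.mul_mem hg hh, by rw [Perm.mul_apply, hhz, hgz], fun x => ?_⟩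
    rw [Perm.mul_apply, hhb, hga]
    rfl
  one_mem' := ⟨1, G.one_mem, rfl, fun _ => rfl⟩
  inv_mem' := by
    rintro a ⟨g, hg, hgz, hga⟩
    refine ⟨g⁻¹, G.inv_mem hg, by rw [Perm.inv_eq_iff_eq, hgz], fun x => ?_⟩
    rw [Perm.inv_eq_iff_eq, hga]
    simp

theorem Sk.restr {k : ℕ} (hG : Sk (k + 1) G) (z : α) : Sk k (restr G z) := by
  have hemb : ∀ x : Fin k ↪ {x // x ≠ z}, ∃ X : Fin (k + 1) ↪ α, X 0 = z ∧ ∀ i : Fin k, X i.succ = (x i).1 := by
    intro x
    refine ⟨⟨Fin.cons z (fun i => (x i).1), ?_⟩, rfl, fun i => rfl⟩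
    rw [Fin.cons_injective_iff]
    refine ⟨?_, fun i j h => x.injective (Subtype.ext h)⟩
    rintro ⟨i, hi⟩
    exact (x i).2 hi
  constructor
  · intro x y
    obtain ⟨X, hX0, hXi⟩ := hemb x
    obtain ⟨Y, hY0, hYi⟩ := hemb y
    obtain ⟨g, hg, h⟩ := hG.real X Y
    have hgz : g z = z := by
      rw [← hX0, h, hX0, hY0]
    have hne : ∀ a, g a ≠ z ↔ a ≠ z := by
      intro a
      constructor
      · intro h1 h2
        exact h1 (by rw [h2, hgz])
      · intro h1 h2
        apply h1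
        apply g.injective
        rw [h2, hgz]
    refine ⟨g.subtypePerm hne, ⟨g, hg, hgz, fun _ => rfl⟩, fun i => ?_⟩
    apply Subtype.ext
    show g (x i).1 = (y i).1
    rw [← hXi, h, hYi]
  · rintro π ⟨g, hg, hgz, hπ⟩ x hx
    obtain ⟨X, hX0, hXi⟩ := hemb x
    have hg1 : g = 1 := by
      refine hG.sharp g hg X fun i => ?_
      refine Fin.cases ?_ (fun j => ?_) i
      · rw [hX0, hgz]
      · rw [hXi, hπ, hx]
    ext y
    have := hπ y
    rw [hg1] at this
    exact this.symm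

theorem card_ne_subtype (z : α) : Fintype.card {x // x ≠ z} = Fintype.card α - 1 := by
  rw [Fintype.card_subtype, Finset.filter_ne', Finset.card_erase_of_mem (Finset.mem_univ z), Finset.card_univ]

theorem steiner_count {B : Set (Finset α)} {t : ℕ} (h : IsSteinerSystem t (t + 1) B) :
    (t + 1) ∣ (Fintype.card α).choose t := by
  classical
  let F : Finset (Finset α) := Finset.univ.filter (· ∈ B)
  have h1 : Finset.powersetCard t Finset.univ = F.biUnion (fun b => Finset.powersetCard t b) := by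
    ext s
    simp only [Finset.mem_powersetCard, Finset.mem_biUnion, F, Finset.mem_filter, Finset.mem_univ, true_and,
      Finset.subset_univ]
    constructor
    · intro hs
      obtain ⟨b, ⟨hb, hsb⟩, -⟩ := h.2 s hs
      exact ⟨b, hb, hsb, hs⟩
    · rintro ⟨b, hb, hsb, hs⟩
      exact hs
  have h2 : (Finset.powersetCard t (Finset.univ : Finset α)).card = F.card * (t + 1) := by
    rw [h1, Finset.card_biUnion]
    · rw [Finset.sum_congr rfl (g := fun _ => t + 1)]
      · simp
      · intro b hb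
        have hb' : b ∈ B := by simpa [F] using hb
        rw [Finset.card_powersetCard, h.1 b hb', Nat.choose_succ_self_right]
    · intro b hb b' hb' hne
      rw [Function.onFun, Finset.disjoint_left]
      intro s hs hs'
      rw [Finset.mem_powersetCard] at hs hs'
      have hbB : b ∈ B := by simpa [F] using hb
      have hbB' : b' ∈ B := by simpa [F] using hb'
      exact hne ((h.2 s hs.2).unique ⟨hbB, hs.1⟩ ⟨hbB', hs'.1⟩)
  rw [Finset.card_powersetCard, Finset.card_univ] at h2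
  exact ⟨F.card, by rw [h2, mul_comm]⟩

theorem degree5 (hG : Sk 5 G) (h5 : 5 ≤ Fintype.card α) :
    Fintype.card α = 5 ∨ Fintype.card α = 6 ∨ Fintype.card α = 7 ∨ Fintype.card α = 12 := by
  have hne : Nonempty α := Fintype.card_pos_iff.mp (by omega)
  obtain ⟨z⟩ := hne
  have h4 : Sk 4 (restr G z) := hG.restr z
  have hc := card_ne_subtype z
  have := h4.toS4.degree (by omega)
  omega

theorem degree6 (hG : Sk 6 G) (h6 : 6 ≤ Fintype.card α) :
    Fintype.card α = 6 ∨ Fintype.card α = 7 ∨ Fintype.card α = 8 := by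
  have hne : Nonempty α := Fintype.card_pos_iff.mp (by omega)
  obtain ⟨z⟩ := hne
  have h5 : Sk 5 (restr G z) := hG.restr z
  have hc := card_ne_subtype z
  have h1 := degree5 h5 (by omega)
  by_cases h13 : Fintype.card α = 13
  · exfalso
    have hS := hG.steiner_of_good (by norm_num) (fun T hT =>
      exists_good_big hG (by norm_num) (by rw [h13]) hT)
    have hcount := steiner_count hS
    rw [h13] at hcount
    revert hcount
    decide
  · omega

theorem degree_ge (k : ℕ) (hk : 6 ≤ k) : ∀ {α : Type u} [Fintype α] [DecidableEq α] {G : Subgroup (Perm α)},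
    Sk k G → k ≤ Fintype.card α → Fintype.card α = k ∨ Fintype.card α = k + 1 ∨ Fintype.card α = k + 2 := by
  induction k, hk using Nat.le_induction with
  | base =>
    intro α _ _ G hG h6
    exact degree6 hG h6
  | succ k hk ih =>
    intro α _ _ G hG hn
    have hne : Nonempty α := Fintype.card_pos_iff.mp (by omega)
    obtain ⟨z⟩ := hne
    have h1 : Sk k (restr G z) := hG.restr z
    have hc := card_ne_subtype z
    have := ih h1 (by omega)
    omega

end CfsgLib.Sharp
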