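/-
Recognition of the two Mathieu groups among sharply multiply transitive groups.
-/
import Cfsg.Agent.Lib.Sharp.Main
import Cfsg.Agent.Lib.StCert.AutM12

set_option autoImplicit false

namespace CfsgLib.Sharp

open Cfsg Equiv Equiv.Perm
open scoped Pointwise

universe u

variable {α : Type u} [Fintype α] [DecidableEq α] {G : Subgroup (Perm α)}

theorem isM11_of_Sk (hα : Fintype.card α = 11) (hG : Sk 4 G) : IsM11 G := by
  have hS := hG.steiner_of_good (by norm_num) (fun T hT =>
    exists_good4 hG (by rw [hα]; decide) (by omega) hT)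
  have hres := CfsgLib.StCert.M12.aut11_result hα hS
  have hle : G ≤ setSystemAut (Bl G 4) := Sk.le_aut
  have hcard : Nat.card G = 7920 := by
    rw [hG.card_eq (by omega), hα]
    decide
  have heq : G = setSystemAut (Bl G 4) := Subgroup.eq_of_le_of_card_ge hle (by rw [hres.1.2, hcard])
  have h := hres.1
  rw [← heq] at h
  exact h

theorem isM12_of_Sk (hα : Fintype.card α = 12) (hG : Sk 5 G) : IsM12 G := by
  have hS := hG.steiner_of_good (by norm_num) (fun T hT =>
    exists_good_big hG (by norm_num) (by rw [hα]) hT)
  have hres := CfsgLib.StCert.M12.aut12_result hα hS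
  have hle : G ≤ setSystemAut (Bl G 5) := Sk.le_aut
  have hcard : Nat.card G = 95040 := by
    rw [hG.card_eq (by omega), hα]
    decide
  have heq : G = setSystemAut (Bl G 5) := Subgroup.eq_of_le_of_card_ge hle (by rw [hres.1.2, hcard])
  have h := hres.1
  rw [← heq] at h
  exact h

end CfsgLib.Sharp
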